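import Mathlib
import Cfsg.Agent.S4304

/-! Sylow counting tools for finite simple groups (helper20). -/

set_option autoImplicit false

namespace Cfsg.Agent.Helper20

theorem sylow_card_eq_pow {G : Type*} [Group G] [Finite G] {p : ℕ} [Fact p.Prime] (P : Sylow p G)
    (k m : ℕ) (h : Nat.card G = p ^ k * m) (hm : ¬ p ∣ m) :
    Nat.card (P : Subgroup G) = p ^ k := by
  have hp : p.Prime := Fact.out
  have h1 : Nat.card (P : Subgroup G) = p ^ (Nat.card G).factorization p :=
    Sylow.card_eq_multiplicity P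
  rw [h1, h]
  congr 1
  have hm0 : m ≠ 0 := by
    rintro rfl
    exact hm (dvd_zero p)
  rw [Nat.factorization_mul (pow_ne_zero k hp.ne_zero) hm0, Finsupp.add_apply,
    hp.factorization_pow, Finsupp.single_eq_same, Nat.factorization_eq_zero_of_not_dvd hm,
    add_zero]

theorem simple_sylow_faithful {G : Type*} [Group G] [Finite G] [IsSimpleGroup G] (p : ℕ)
    [Fact p.Prime] (hne : Nat.card (Sylow p G) ≠ 1) (g : G)
    (hg : ∀ Q : Sylow p G, g • Q = Q) : g = 1 := by
  obtain ⟨P⟩ : Nonempty (Sylow p G) := inferInstance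
  have hidxN : (Subgroup.normalizer ((P : Subgroup G) : Set G)).index = Nat.card (Sylow p G) :=
    (Sylow.card_eq_index_normalizer P).symm
  have hgK : g ∈ (MulAction.toPermHom G (Sylow p G)).ker := by
    rw [MonoidHom.mem_ker]
    ext Q
    simp only [MulAction.toPermHom_apply, MulAction.toPerm_apply, Equiv.Perm.coe_one, id_eq]
    rw [hg Q]
  rcases (MonoidHom.normal_ker (MulAction.toPermHom G (Sylow p G))).eq_bot_or_eq_top
    with hb | ht
  · rw [hb, Subgroup.mem_bot] at hgK
    exact hgK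
  · exfalso
    have hall : ∀ g' : G, g' ∈ Subgroup.normalizer ((P : Subgroup G) : Set G) := by
      intro g'
      have h1 : g' ∈ (MulAction.toPermHom G (Sylow p G)).ker := by
        rw [ht]; exact Subgroup.mem_top g'
      rw [MonoidHom.mem_ker] at h1
      have h2 := congrArg (fun σ : Equiv.Perm (Sylow p G) => σ P) h1
      simp only [MulAction.toPermHom_apply, MulAction.toPerm_apply, Equiv.Perm.coe_one,
        id_eq] at h2
      exact Sylow.smul_eq_iff_mem_normalizer.1 h2
    have h3 : Subgroup.normalizer ((P : Subgroup G) : Set G) = ⊤ :=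
      eq_top_iff.2 fun g' _ => hall g'
    rw [h3, Subgroup.index_top] at hidxN
    exact hne hidxN.symm

theorem simple_card_le_factorial_sylow {G : Type*} [Group G] [Finite G] [IsSimpleGroup G]
    (p : ℕ) [Fact p.Prime] (hne : Nat.card (Sylow p G) ≠ 1) :
    Nat.card G ≤ (Nat.card (Sylow p G)).factorial := by
  have hinj : Function.Injective (MulAction.toPermHom G (Sylow p G)) := by
    rw [injective_iff_map_eq_one]
    intro g hg
    apply simple_sylow_faithful p hne
    intro Q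
    have h2 := congrArg (fun σ : Equiv.Perm (Sylow p G) => σ Q) hg
    simpa using h2
  have h1 := Nat.card_le_card_of_injective _ hinj
  rwa [Nat.card_perm] at h1

theorem simple_sylow_gen {G : Type*} [Group G] [Finite G] [IsSimpleGroup G] (p : ℕ)
    [Fact p.Prime] (P : Sylow p G) (hP : (P : Subgroup G) ≠ ⊥) (H : Subgroup G)
    (hH : ∀ Q : Sylow p G, (Q : Subgroup G) ≤ H) : H = ⊤ := by
  have hle : (P : Subgroup G) ≤ H.normalCore := by
    intro u hu b
    have h1 : b * u * b⁻¹ ∈ ((b • P : Sylow p G) : Subgroup G) := by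
      rw [Cfsg.Agent.S4304.mem_smul_sylow]
      have e : b⁻¹ * (b * u * b⁻¹) * b = u := by group
      rw [e]
      exact hu
    exact hH _ h1
  rcases (inferInstance : H.normalCore.Normal).eq_bot_or_eq_top with hb | ht
  · exfalso
    rw [hb, le_bot_iff] at hle
    exact hP hle
  · exact top_unique (ht ▸ Subgroup.normalCore_le H)

theorem simple_sylow_card_ne_one {G : Type*} [Group G] [Finite G] [IsSimpleGroup G] (p : ℕ)
    [Fact p.Prime] (P : Sylow p G) (hP1 : (P : Subgroup G) ≠ ⊥) (hP2 : (P : Subgroup G) ≠ ⊤) :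
    Nat.card (Sylow p G) ≠ 1 := by
  intro hn1
  have hidxN : (Subgroup.normalizer ((P : Subgroup G) : Set G)).index = Nat.card (Sylow p G) :=
    (Sylow.card_eq_index_normalizer P).symm
  rw [hn1] at hidxN
  have hnorm : Subgroup.normalizer ((P : Subgroup G) : Set G) = ⊤ :=
    Subgroup.index_eq_one.1 hidxN
  have hPn : (P : Subgroup G).Normal := Subgroup.normalizer_eq_top_iff.1 hnorm
  rcases hPn.eq_bot_or_eq_top with hb | ht
  · exact hP1 hb
  · exact hP2 ht

theorem simple_not_burnside {G : Type*} [Group G] [Finite G] [IsSimpleGroup G] (p : ℕ)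
    [Fact p.Prime] (P : Sylow p G) (hP1 : (P : Subgroup G) ≠ ⊥) (hP2 : (P : Subgroup G) ≠ ⊤)
    (h : Subgroup.normalizer ((P : Subgroup G) : Set G) ≤
      Subgroup.centralizer ((P : Subgroup G) : Set G)) : False := by
  have hc := MonoidHom.ker_transferSylow_isComplement' P h
  have hcard := hc.card_mul_card
  rcases (MonoidHom.normal_ker (MonoidHom.transferSylow P h)).eq_bot_or_eq_top with hb | ht
  · rw [hb, Subgroup.card_bot, one_mul] at hcard
    exact hP2 (Subgroup.eq_top_of_card_eq _ hcard)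
  · rw [ht, Subgroup.card_top] at hcard
    have hpos : 0 < Nat.card G := Nat.card_pos
    have h2 : Nat.card (P : Subgroup G) = 1 := by
      have h1 : Nat.card G * Nat.card (P : Subgroup G) = Nat.card G * 1 := by
        rw [mul_one]; exact hcard
      exact Nat.eq_of_mul_eq_mul_left hpos h1
    exact hP1 (Subgroup.card_eq_one.1 h2)

/-- Basic Sylow data in a simple group of order `p ^ k * m`, `p ∤ m`, `k ≠ 0`, `m ≠ 1`. -/
theorem simple_sylow_basic {G : Type*} [Group G] [Finite G] [IsSimpleGroup G] (p : ℕ)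
    [Fact p.Prime] (k m : ℕ) (h : Nat.card G = p ^ k * m) (hm : ¬ p ∣ m) (hk : k ≠ 0)
    (hm1 : m ≠ 1) (P : Sylow p G) :
    Nat.card (P : Subgroup G) = p ^ k ∧ (P : Subgroup G) ≠ ⊥ ∧ (P : Subgroup G) ≠ ⊤ ∧
      Nat.card (Sylow p G) ≠ 1 ∧ Nat.card (Sylow p G) ∣ m ∧ Nat.card (Sylow p G) % p = 1 ∧
      Nat.card (Subgroup.normalizer ((P : Subgroup G) : Set G)) * Nat.card (Sylow p G)
        = Nat.card G := by
  have hp : p.Prime := Fact.out
  have hc := sylow_card_eq_pow P k m h hm
  have hpk : 1 < p ^ k := Nat.one_lt_pow hk hp.one_lt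
  have hP1 : (P : Subgroup G) ≠ ⊥ := by
    intro hb
    rw [hb, Subgroup.card_bot] at hc
    omega
  have hP2 : (P : Subgroup G) ≠ ⊤ := by
    intro ht
    rw [ht, Subgroup.card_top, h] at hc
    have h1 : p ^ k * m = p ^ k * 1 := by rw [mul_one]; exact hc
    exact hm1 (Nat.eq_of_mul_eq_mul_left (by omega) h1)
  have hidx : (P : Subgroup G).index = m := by
    have h1 := Subgroup.card_mul_index (P : Subgroup G)
    rw [hc, h] at h1
    exact Nat.eq_of_mul_eq_mul_left (by omega) h1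
  refine ⟨hc, hP1, hP2, simple_sylow_card_ne_one p P hP1 hP2, ?_, ?_, ?_⟩
  · have h1 := Sylow.card_dvd_index P
    rwa [hidx] at h1
  · have h1 : Nat.card (Sylow p G) ≡ 1 [MOD p] := card_sylow_modEq_one p G
    have h2 : Nat.card (Sylow p G) % p = 1 % p := h1
    rw [h2, Nat.mod_eq_of_lt hp.one_lt]
  · have h1 : Nat.card (Sylow p G) = (Subgroup.normalizer ((P : Subgroup G) : Set G)).index :=
      Sylow.card_eq_index_normalizer P
    rw [h1]
    exact Subgroup.card_mul_index _

theorem sign_invol_sylow {G : Type*} [Group G] [Finite G] {p : ℕ} [Fintype (Sylow p G)]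
    [DecidableEq (Sylow p G)]
    (hfaith : ∀ g : G, (∀ Q : Sylow p G, g • Q = Q) → g = 1) (t : G) (ht : orderOf t = 2)
    (m : ℕ) (hm : Nat.card (Sylow p G) = Nat.card {Q : Sylow p G // t • Q = Q} + 2 * m) :
    Equiv.Perm.sign (MulAction.toPerm t : Equiv.Perm (Sylow p G)) = (-1) ^ m := by
  obtain ⟨σ, hσ⟩ : ∃ σ : Equiv.Perm (Sylow p G), σ = MulAction.toPerm t := ⟨_, rfl⟩
  rw [← hσ]
  have ht2 : t ^ 2 = 1 := by rw [← ht]; exact pow_orderOf_eq_one t
  have ht1 : t ≠ 1 := by
    intro h1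
    rw [h1, orderOf_one] at ht
    omega
  have hσ' : σ = MulAction.toPermHom G (Sylow p G) t := hσ
  have hσ2 : σ ^ 2 = 1 := by rw [hσ', ← map_pow, ht2, map_one]
  have hσ1 : σ ≠ 1 := by
    intro h1
    apply ht1
    apply hfaith
    intro Q
    have h2 := congrArg (fun τ : Equiv.Perm (Sylow p G) => τ Q) h1
    rw [hσ] at h2
    simpa using h2
  haveI : Fact (Nat.Prime 2) := ⟨Nat.prime_two⟩
  have hσo : orderOf σ = 2 := orderOf_eq_prime hσ2 hσ1
  obtain ⟨n, hn⟩ := Equiv.Perm.cycleType_prime_order (σ := σ) (by rw [hσo]; exact Nat.prime_two)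
  rw [hσo] at hn
  have hsupp : σ.support.card = 2 * m := by
    have h1 := Cfsg.Agent.S4304.card_compl_support (p := p) t
    rw [← hσ] at h1
    have h2 := Finset.card_add_card_compl σ.support
    rw [h1, ← Nat.card_eq_fintype_card, hm] at h2
    omega
  have hsum : σ.cycleType.sum = 2 * m := by rw [Equiv.Perm.sum_cycleType, hsupp]
  have hn11 : n + 1 = m := by
    rw [hn, Multiset.sum_replicate, smul_eq_mul] at hsum
    omega
  rw [Equiv.Perm.sign_of_cycleType, hsum, hn, Multiset.card_replicate, hn11, pow_add, pow_mul,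
    neg_one_sq, one_pow, one_mul]

theorem conj_eq_or_inv_of_order_three {G : Type*} [Group G] [Finite G] (x g : G)
    (hx : orderOf x = 3) (h1 : g * x * g⁻¹ ∈ Subgroup.zpowers x) :
    g * x * g⁻¹ = x ∨ g * x * g⁻¹ = x⁻¹ := by
  have hx3 : x ^ 3 = 1 := by rw [← hx]; exact pow_orderOf_eq_one x
  rw [← mem_powers_iff_mem_zpowers] at h1
  obtain ⟨n, hn⟩ := (Submonoid.mem_powers_iff _ _).1 h1
  have h2 : x ^ n = x ^ (n % 3) := by rw [← hx, pow_mod_orderOf]
  have h3 : n % 3 < 3 := Nat.mod_lt _ (by norm_num)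
  rw [h2] at hn
  obtain ⟨m, hm⟩ : ∃ m, m = n % 3 := ⟨_, rfl⟩
  rw [← hm] at hn h3
  interval_cases m
  · exfalso
    rw [pow_zero] at hn
    have h5 : x = 1 := conj_eq_one_iff.1 hn.symm
    rw [h5, orderOf_one] at hx
    norm_num at hx
  · left; rw [← hn, pow_one]
  · right
    rw [← hn]
    apply eq_inv_of_mul_eq_one_left
    show x ^ 2 * x = 1
    rw [← pow_succ]
    exact hx3

theorem centralizer_index_le_two {H : Type*} [Group H] (x : H)
    (hconj : ∀ g : H, g * x * g⁻¹ = x ∨ g * x * g⁻¹ = x⁻¹) :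
    (Subgroup.centralizer ({x} : Set H)).index = 1 ∨
      (Subgroup.centralizer ({x} : Set H)).index = 2 := by
  have hmem : ∀ b : H, b ∈ Subgroup.centralizer ({x} : Set H) ↔ b * x * b⁻¹ = x := by
    intro b
    rw [Subgroup.mem_centralizer_singleton_iff, mul_inv_eq_iff_eq_mul]
  by_cases htop : Subgroup.centralizer ({x} : Set H) = ⊤
  · left; rw [htop]; exact Subgroup.index_top
  · right
    obtain ⟨g, hg⟩ : ∃ g : H, g ∉ Subgroup.centralizer ({x} : Set H) := by
      by_contra hcon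
      push Not at hcon
      exact htop (eq_top_iff.2 fun g _ => hcon g)
    rw [Subgroup.index_eq_two_iff]
    refine ⟨g, fun b => ?_⟩
    have hgx : g * x * g⁻¹ = x⁻¹ := by
      rcases hconj g with h1 | h1
      · exact absurd ((hmem g).2 h1) hg
      · exact h1
    by_cases hb : b ∈ Subgroup.centralizer ({x} : Set H)
    · right
      refine ⟨hb, fun h' => hg ?_⟩
      have h7 := Subgroup.mul_mem _ (Subgroup.inv_mem _ hb) h'
      simpa using h7
    · left
      refine ⟨?_, hb⟩
      have hbx : b * x * b⁻¹ = x⁻¹ := by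
        rcases hconj b with h1 | h1
        · exact absurd ((hmem b).2 h1) hb
        · exact h1
      rw [hmem]
      have e : b * g * x * (b * g)⁻¹ = b * (g * x * g⁻¹) * b⁻¹ := by group
      rw [e, hgx]
      have e2 : b * x⁻¹ * b⁻¹ = (b * x * b⁻¹)⁻¹ := by group
      rw [e2, hbx, inv_inv]

/-- If `N` normalizes `⟨x⟩` with `x` of order 3, then `N` centralizes `x` or `C_N(x)` has
index 2 in `N`. -/
theorem normalizer_zpowers_three {G : Type*} [Group G] [Finite G] (x : G) (hx : orderOf x = 3)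
    (N : Subgroup G) (hN : ∀ g ∈ N, g * x * g⁻¹ ∈ Subgroup.zpowers x) (hxN : x ∈ N) :
    (∀ g ∈ N, g * x = x * g) ∨
      (∃ C : Subgroup G, C ≤ N ∧ (∀ g ∈ C, g * x = x * g) ∧
        (∀ g ∈ N, g * x = x * g → g ∈ C) ∧ Nat.card C * 2 = Nat.card N) := by
  have hconj : ∀ g : ↥N, g * (⟨x, hxN⟩ : ↥N) * g⁻¹ = ⟨x, hxN⟩ ∨
      g * (⟨x, hxN⟩ : ↥N) * g⁻¹ = (⟨x, hxN⟩ : ↥N)⁻¹ := by
    intro g
    rcases conj_eq_or_inv_of_order_three x g.1 hx (hN g.1 g.2) with h | h
    · left; exact Subtype.ext h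
    · right; exact Subtype.ext h
  have hmemK : ∀ g : ↥N, g ∈ Subgroup.centralizer ({(⟨x, hxN⟩ : ↥N)} : Set ↥N) ↔
      g.1 * x = x * g.1 := by
    intro g
    rw [Subgroup.mem_centralizer_singleton_iff]
    constructor
    · intro h; exact congrArg Subtype.val h
    · intro h; exact Subtype.ext h
  rcases centralizer_index_le_two (⟨x, hxN⟩ : ↥N) hconj with h1 | h2
  · left
    intro g hg
    have h3 : (⟨g, hg⟩ : ↥N) ∈ Subgroup.centralizer ({(⟨x, hxN⟩ : ↥N)} : Set ↥N) := by
      rw [Subgroup.index_eq_one.1 h1]; exact Subgroup.mem_top _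
    exact (hmemK _).1 h3
  · right
    refine ⟨(Subgroup.centralizer ({(⟨x, hxN⟩ : ↥N)} : Set ↥N)).map N.subtype, ?_, ?_, ?_, ?_⟩
    · intro g hg
      obtain ⟨g', _, rfl⟩ := Subgroup.mem_map.1 hg
      exact g'.2
    · intro g hg
      obtain ⟨g', hg', rfl⟩ := Subgroup.mem_map.1 hg
      exact (hmemK g').1 hg'
    · intro g hg hgx
      exact Subgroup.mem_map.2 ⟨⟨g, hg⟩, (hmemK _).2 hgx, rfl⟩
    · rw [Subgroup.card_map_of_injective N.subtype_injective]
      have h3 := Subgroup.card_mul_index (Subgroup.centralizer ({(⟨x, hxN⟩ : ↥N)} : Set ↥N))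
      rw [h2] at h3
      exact h3

theorem exists_order_two_mem {G : Type*} [Group G] [Finite G] (K : Subgroup G)
    (h : 2 ∣ Nat.card K) : ∃ t ∈ K, orderOf t = 2 := by
  haveI : Fact (Nat.Prime 2) := ⟨Nat.prime_two⟩
  obtain ⟨t, ht⟩ := exists_prime_orderOf_dvd_card' (G := ↥K) 2 h
  exact ⟨t.1, t.2, by rw [Subgroup.orderOf_coe]; exact ht⟩

theorem exists_order_mem {G : Type*} [Group G] [Finite G] (q : ℕ) [Fact q.Prime] (K : Subgroup G)
    (h : q ∣ Nat.card K) : ∃ t ∈ K, orderOf t = q := by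
  obtain ⟨t, ht⟩ := exists_prime_orderOf_dvd_card' (G := ↥K) q h
  exact ⟨t.1, t.2, by rw [Subgroup.orderOf_coe]; exact ht⟩

end Cfsg.Agent.Helper20
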