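import Mathlib
import Cfsg.Agent.Helper20.HallHigman
import Cfsg.Agent.Helper12.Goldschmidt

set_option autoImplicit false

namespace Cfsg.Agent.Helper20.PLen

universe u

open Cfsg

/-- `Z(S) ≤ O_{p',p}(G)` for a Sylow `p`-subgroup `S` of a `p`-solvable group. -/
theorem center_sylow_le_upper_two {G : Type u} [Group G] [Finite G] (p : ℕ) [hp : Fact p.Prime]
    (hsol : Cfsg.IsPSolvable p G) (S : Sylow p G) (z : G)
    (hz : ∀ x ∈ (S : Subgroup G), x * z = z * x) : z ∈ (upperPSeries p G 2).1 := by
  have hodd : ¬ Even 1 := Nat.not_even_one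
  have hHH := centralizer_pCore_le_of_psolvable p
    (Cfsg.Agent.Helper20.isPSolvable_quotient p hsol (upperPSeries p G 1).1)
    (pPrimeCore_quot_upper_odd p 1 hodd)
  have hU2 : (upperPSeries p G 2).1 = (pCore p (G ⧸ (upperPSeries p G 1).1)).comap
      (QuotientGroup.mk' (upperPSeries p G 1).1) := upper_succ_odd p hodd
  rw [hU2, Subgroup.mem_comap]
  apply hHH
  rw [Subgroup.mem_centralizer_iff]
  intro y hy
  obtain ⟨u, rfl⟩ := QuotientGroup.mk'_surjective (upperPSeries p G 1).1 y
  have hu : u ∈ (upperPSeries p G 2).1 := by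
    rw [hU2, Subgroup.mem_comap]
    exact hy
  obtain ⟨R, hRS, hRU, hRidx, -⟩ := Cfsg.Agent.Helper12.exists_sylow_of_normal S
    (upperPSeries p G 2).1 (upperPSeries_normal p G 2)
  have hle : (upperPSeries p G 2).1 ≤ (upperPSeries p G 1).1 ⊔ R := by
    rw [← Subgroup.relIndex_eq_one]
    have h1 : ((upperPSeries p G 1).1 ⊔ R).relIndex (upperPSeries p G 2).1 ∣
        R.relIndex (upperPSeries p G 2).1 :=
      Subgroup.relIndex_dvd_of_le_left _ le_sup_right
    have h2 : ((upperPSeries p G 1).1 ⊔ R).relIndex (upperPSeries p G 2).1 ∣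
        (upperPSeries p G 1).1.relIndex (upperPSeries p G 2).1 :=
      Subgroup.relIndex_dvd_of_le_left _ le_sup_left
    have h3 := upper_relIndex (G := G) p 1
    rw [stepOK_odd hodd] at h3
    obtain ⟨e, he⟩ := h3
    have he' : (upperPSeries p G 1).1.relIndex (upperPSeries p G 2).1 = p ^ e := he
    rw [he'] at h2
    obtain ⟨j, -, hj⟩ := (Nat.dvd_prime_pow hp.out).mp h2
    rcases Nat.eq_zero_or_pos j with h0 | hpos
    · rw [hj, h0, pow_zero]
    · exfalso
      apply hRidx
      refine dvd_trans ?_ h1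
      rw [hj]
      exact dvd_pow_self p (by omega)
  have hu' : u ∈ (((upperPSeries p G 1).1 ⊔ R : Subgroup G) : Set G) := hle hu
  rw [Subgroup.normal_mul] at hu'
  obtain ⟨k, hk, x, hx, rfl⟩ := Set.mem_mul.mp hu'
  have hk1 : QuotientGroup.mk' (upperPSeries p G 1).1 k = 1 :=
    (QuotientGroup.eq_one_iff k).mpr hk
  have hxz : x * z = z * x := hz x (hRS hx)
  rw [map_mul, hk1, one_mul, ← map_mul, ← map_mul, hxz]

/-- The `p`-length of a `p`-solvable group is at most the nilpotency class of its Sylow
`p`-subgroups. -/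
theorem plength_le_class (p : ℕ) [hp : Fact p.Prime] :
    ∀ (c : ℕ) (G : Type u) [Group G] [Finite G], Cfsg.IsPSolvable p G →
      ∀ S : Sylow p G, Group.nilpotencyClass ↥(S : Subgroup G) ≤ c → PLengthLE p c G := by
  intro c
  induction c with
  | zero =>
    intro G _ _ hsol S hS
    haveI : Group.IsNilpotent ↥(S : Subgroup G) := S.isPGroup'.isNilpotent
    have h0 : Group.nilpotencyClass ↥(S : Subgroup G) = 0 := Nat.le_zero.mp hS
    rw [Group.nilpotencyClass_zero_iff_subsingleton] at h0
    haveI := h0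
    apply pLengthLE_zero_of_coprime
    have h1 : Nat.card ↥(S : Subgroup G) = 1 := Nat.card_of_subsingleton 1
    have h2 := Subgroup.card_mul_index (S : Subgroup G)
    rw [h1, one_mul] at h2
    rw [← h2]
    exact ((Nat.Prime.coprime_iff_not_dvd hp.out).mpr S.not_dvd_index).symm
  | succ c ih =>
    intro G _ _ hsol S hS
    haveI : Group.IsNilpotent ↥(S : Subgroup G) := S.isPGroup'.isNilpotent
    apply pLengthLE_of_quot_upper_two
    apply ih (G ⧸ (upperPSeries p G 2).1)
      (Cfsg.Agent.Helper20.isPSolvable_quotient p hsol _)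
      (S.mapSurjective (QuotientGroup.mk'_surjective _))
    show Group.nilpotencyClass
      ↥((S : Subgroup G).map (QuotientGroup.mk' (upperPSeries p G 2).1)) ≤ c
    have hker : Subgroup.center ↥(S : Subgroup G) ≤
        ((QuotientGroup.mk' (upperPSeries p G 2).1).subgroupMap (S : Subgroup G)).ker := by
      intro z hz
      rw [MonoidHom.mem_ker]
      apply Subtype.ext
      show QuotientGroup.mk' (upperPSeries p G 2).1 (z : G) = 1
      apply (QuotientGroup.eq_one_iff _).mpr
      apply center_sylow_le_upper_two p hsol S (z : G)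
      intro x hx
      exact congrArg Subtype.val (Subgroup.mem_center_iff.mp hz ⟨x, hx⟩)
    have hg := QuotientGroup.lift_surjective_of_surjective (Subgroup.center ↥(S : Subgroup G))
      ((QuotientGroup.mk' (upperPSeries p G 2).1).subgroupMap (S : Subgroup G))
      ((QuotientGroup.mk' (upperPSeries p G 2).1).subgroupMap_surjective (S : Subgroup G)) hker
    have h1 := Group.nilpotencyClass_le_of_surjective _ hg
    rw [Group.nilpotencyClass_quotient_center] at h1
    omega

end Cfsg.Agent.Helper20.PLen
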