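import Mathlib
import Cfsg.Agent.Helper20.PLength

set_option autoImplicit false

namespace Cfsg.Agent.Helper20.PLen

universe u

open Cfsg

/-- Hall–Higman: the derived length is bounded by `∑ d_i l_i`. -/
theorem derived_bound (r : ℕ) (q : Fin r → ℕ) (hq : ∀ i, (q i).Prime) (d : Fin r → ℕ) :
    ∀ (m : ℕ) (G : Type u) [Group G] [Finite G] (l : Fin r → ℕ),
      Nat.card G + ∑ i, l i = m →
      (∀ s : ℕ, s.Prime → s ∣ Nat.card G → ∃ i, q i = s) →
      (∀ i, ∀ P : Subgroup G, IsPGroup (q i) ↥P → derivedSeries ↥P (d i) = ⊥) →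
      (∀ i, PLengthLE (q i) (l i) G) → derivedSeries G (∑ i, d i * l i) = ⊥ := by
  intro m
  induction m using Nat.strong_induction_on with
  | _ m IH =>
    intro G _ _ l hm hcov hd hl
    have hstep : ∀ i, derivedSeries G (∑ j, d j * l j) ≤ (upperPSeries (q i) G 1).1 := by
      intro i
      haveI : Fact (q i).Prime := ⟨hq i⟩
      rcases Nat.eq_zero_or_pos (l i) with h0 | hpos
      · have h1 := hl i
        rw [h0] at h1
        have h2 : (upperPSeries (q i) G 1).1 = ⊤ := h1
        rw [h2]
        exact le_top
      · obtain ⟨k, hk⟩ : ∃ k, l i = k + 1 := ⟨l i - 1, by omega⟩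
        classical
        obtain ⟨l', hl'i, hl'ne⟩ : ∃ l' : Fin r → ℕ, l' i = k ∧ ∀ j, j ≠ i → l' j = l j :=
          ⟨Function.update l i k, Function.update_self i k l,
            fun j hj => Function.update_of_ne hj k l⟩
        have e1 : l i + ∑ x ∈ Finset.univ.erase i, l x = ∑ x, l x :=
          Finset.add_sum_erase Finset.univ l (Finset.mem_univ i)
        have e2 : l' i + ∑ x ∈ Finset.univ.erase i, l' x = ∑ x, l' x :=
          Finset.add_sum_erase Finset.univ l' (Finset.mem_univ i)
        have e3 : ∑ x ∈ Finset.univ.erase i, l' x = ∑ x ∈ Finset.univ.erase i, l x :=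
          Finset.sum_congr rfl (fun j hj => hl'ne j (Finset.ne_of_mem_erase hj))
        have e5 : d i * l i + ∑ x ∈ Finset.univ.erase i, d x * l x = ∑ x, d x * l x :=
          Finset.add_sum_erase Finset.univ (fun j => d j * l j) (Finset.mem_univ i)
        have e6 : d i * l' i + ∑ x ∈ Finset.univ.erase i, d x * l' x = ∑ x, d x * l' x :=
          Finset.add_sum_erase Finset.univ (fun j => d j * l' j) (Finset.mem_univ i)
        have e7 : ∑ x ∈ Finset.univ.erase i, d x * l' x =
            ∑ x ∈ Finset.univ.erase i, d x * l x :=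
          Finset.sum_congr rfl (fun j hj => by rw [hl'ne j (Finset.ne_of_mem_erase hj)])
        have hD : (∑ x, d x * l' x) + d i = ∑ x, d x * l x := by
          rw [← e5, ← e6, e7, hl'i, hk]
          ring
        have hsum : ∑ x, l' x + 1 = ∑ x, l x := by
          rw [← e1, ← e2, e3, hl'i, hk]
          ring
        have hcard_le : Nat.card (G ⧸ (upperPSeries (q i) G 2).1) ≤ Nat.card G :=
          Nat.le_of_dvd Nat.card_pos (Subgroup.card_quotient_dvd_card _)
        have hIH : derivedSeries (G ⧸ (upperPSeries (q i) G 2).1) (∑ x, d x * l' x) = ⊥ := by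
          apply IH (Nat.card (G ⧸ (upperPSeries (q i) G 2).1) + ∑ x, l' x) (by omega)
            (G ⧸ (upperPSeries (q i) G 2).1) l' rfl
          · intro s hs hdvd
            exact hcov s hs (hdvd.trans (Subgroup.card_quotient_dvd_card _))
          · intro j Q hQ
            haveI : Fact (q j).Prime := ⟨hq j⟩
            exact derived_pgroup_quot (q j) (d j) (hd j) _ Q hQ
          · intro j
            haveI : Fact (q j).Prime := ⟨hq j⟩
            by_cases hji : j = i
            · rw [hji, hl'i]
              apply pLengthLE_quot_upper_two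
              rw [← hk]
              exact hl i
            · rw [hl'ne j hji]
              exact pLengthLE_of_surjective (q j) (QuotientGroup.mk' _)
                (QuotientGroup.mk'_surjective _) _ (hl j)
        have hA : derivedSeries G (∑ x, d x * l' x) ≤ (upperPSeries (q i) G 2).1 :=
          derivedSeries_le_of_quot _ _ hIH
        have hP : IsPGroup (q i) ↥(((upperPSeries (q i) G 2).1).map
            (QuotientGroup.mk' (upperPSeries (q i) G 1).1)) := by
          have h1 := upper_relIndex (G := G) (q i) 1
          rw [stepOK_odd Nat.not_even_one, ← card_map_mk_eq_relIndex] at h1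
          obtain ⟨e, he⟩ := h1
          exact IsPGroup.of_card he
        have hPd := derived_pgroup_quot (q i) (d i) (hd i) (upperPSeries (q i) G 1).1 _ hP
        have hle : derivedSeries (G ⧸ (upperPSeries (q i) G 1).1) (∑ x, d x * l' x) ≤
            ((upperPSeries (q i) G 2).1).map
              (QuotientGroup.mk' (upperPSeries (q i) G 1).1) := by
          rw [← map_derivedSeries_eq (QuotientGroup.mk'_surjective (upperPSeries (q i) G 1).1)]
          exact Subgroup.map_mono hA
        have hbot := derivedSeries_add_eq_bot _ _ (d i) hle hPd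
        rw [hD] at hbot
        exact derivedSeries_le_of_quot _ _ hbot
    rw [eq_bot_iff]
    intro x hx
    rw [Subgroup.mem_bot]
    by_contra hx1
    have hord : orderOf x ≠ 1 := fun h => hx1 (orderOf_eq_one_iff.mp h)
    obtain ⟨s, hs, hsdvd⟩ := Nat.exists_prime_and_dvd hord
    obtain ⟨i, rfl⟩ := hcov s hs (hsdvd.trans (orderOf_dvd_natCard x))
    haveI : Fact (q i).Prime := ⟨hq i⟩
    have hxU : x ∈ (upperPSeries (q i) G 1).1 := hstep i hx
    have hcop : (Nat.card ↥(upperPSeries (q i) G 1).1).Coprime (q i) := by
      have h1 := upper_relIndex (G := G) (q i) 0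
      rw [stepOK_even Even.zero, upper_zero, Subgroup.relIndex_bot_left] at h1
      exact h1
    have hdvd : q i ∣ Nat.card ↥(upperPSeries (q i) G 1).1 := by
      have h2 : orderOf (⟨x, hxU⟩ : ↥(upperPSeries (q i) G 1).1) = orderOf x :=
        Subgroup.orderOf_mk x hxU
      rw [← h2] at hsdvd
      exact hsdvd.trans (orderOf_dvd_natCard _)
    exact (Nat.Prime.dvd_iff_not_coprime (hq i)).mp hdvd hcop.symm

end Cfsg.Agent.Helper20.PLen
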