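import Mathlib
import Cfsg.Agent.Helper20.PLength

set_option autoImplicit false

namespace Cfsg.Agent.Helper20.PLen

universe u

open Cfsg

/-- The `p`-length is bounded by the product of `1 + l_s` over the other primes `s`. -/
theorem plength_prod (p : ℕ) [hp : Fact p.Prime] (S : Finset ℕ) :
    ∀ (G : Type u) [Group G] [Finite G] (l : ℕ → ℕ),
      (∀ s ∈ S, s.Prime ∧ s ≠ p) →
      (∀ t : ℕ, t.Prime → t ∣ Nat.card G → t ≠ p → t ∈ S) →
      (∀ s ∈ S, PLengthLE s (l s) G) → PLengthLE p (∏ s ∈ S, (1 + l s)) G := by
  classical
  induction S using Finset.induction_on with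
  | empty =>
    intro G _ _ l _ hcov _
    rw [Finset.prod_empty]
    apply pLengthLE_one_of_isPGroup
    have hcard : Nat.card G = p ^ (Nat.card G).primeFactorsList.length :=
      Nat.eq_prime_pow_of_unique_prime_dvd Nat.card_pos.ne' (fun {d} hd hdvd => by
        by_contra hne
        have h := hcov d hd hdvd hne
        simp at h)
    exact IsPGroup.of_card hcard
  | insert s S' hs ih =>
    intro G _ _ l hS hcov hl
    have hsS : s.Prime ∧ s ≠ p := hS s (Finset.mem_insert_self s S')
    haveI : Fact s.Prime := ⟨hsS.1⟩
    obtain ⟨a, ha⟩ : ∃ a, a = ∏ t ∈ S', (1 + l t) := ⟨_, rfl⟩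
    have inner : ∀ n : ℕ, PLengthLE p (a * ((n + 1) / 2)) ↥(upperPSeries s G n).1 := by
      intro n
      induction n with
      | zero =>
        apply pLengthLE_mono p (Nat.zero_le _)
        apply pLengthLE_zero_of_coprime
        rw [upper_zero, Subgroup.card_bot]
        exact Nat.coprime_one_left p
      | succ n ihn =>
        have hle : (upperPSeries s G n).1 ≤ (upperPSeries s G (n + 1)).1 := upper_le_succ s n
        have hN' : PLengthLE p (a * ((n + 1) / 2))
            ↥((upperPSeries s G n).1.subgroupOf (upperPSeries s G (n + 1)).1) :=
          pLengthLE_equiv p (Subgroup.subgroupOfEquivOfLe hle).symm _ ihn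
        have hcard : Nat.card (↥(upperPSeries s G (n + 1)).1 ⧸
            (upperPSeries s G n).1.subgroupOf (upperPSeries s G (n + 1)).1) =
            (upperPSeries s G n).1.relIndex (upperPSeries s G (n + 1)).1 :=
          (Subgroup.index_eq_card _).symm
        have hstep := upper_relIndex (G := G) s n
        by_cases he : Even n
        · rw [stepOK_even he, ← hcard] at hstep
          have hq : PLengthLE p a (↥(upperPSeries s G (n + 1)).1 ⧸
              (upperPSeries s G n).1.subgroupOf (upperPSeries s G (n + 1)).1) := by
            rw [ha]
            apply ih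
            · intro t ht
              exact hS t (Finset.mem_insert_of_mem ht)
            · intro t ht hdvd hne
              have h1 : t ∣ Nat.card G := by
                have hdvd' := hdvd
                rw [hcard] at hdvd'
                exact hdvd'.trans ((Subgroup.relIndex_dvd_card _ _).trans
                  (Subgroup.card_subgroup_dvd_card _))
              rcases Finset.mem_insert.mp (hcov t ht h1 hne) with h2 | h2
              · exfalso
                rw [h2] at hdvd
                exact (Nat.Prime.dvd_iff_not_coprime hsS.1).mp hdvd hstep.symm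
              · exact h2
            · intro t ht
              haveI : Fact t.Prime := ⟨(hS t (Finset.mem_insert_of_mem ht)).1⟩
              exact pLengthLE_of_surjective t (QuotientGroup.mk' _)
                (QuotientGroup.mk'_surjective _) _
                (pLengthLE_subgroup t _ _ (hl t (Finset.mem_insert_of_mem ht)))
          have hext := pLengthLE_ext p _ _ _ hN' hq
          have harith : a * ((n + 1 + 1) / 2) = a * ((n + 1) / 2) + a := by
            obtain ⟨m, rfl⟩ := he
            have h3 : (m + m + 1 + 1) / 2 = (m + m + 1) / 2 + 1 := by omega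
            rw [h3, mul_add, mul_one]
          rw [harith]
          exact hext
        · rw [stepOK_odd he, ← hcard] at hstep
          obtain ⟨k, hk⟩ := hstep
          have hq : PLengthLE p 0 (↥(upperPSeries s G (n + 1)).1 ⧸
              (upperPSeries s G n).1.subgroupOf (upperPSeries s G (n + 1)).1) := by
            apply pLengthLE_zero_of_coprime
            rw [hk]
            exact Nat.Coprime.pow_left k ((Nat.coprime_primes hsS.1 hp.out).mpr hsS.2)
          have hext := pLengthLE_ext p _ _ _ hN' hq
          have harith : a * ((n + 1 + 1) / 2) = a * ((n + 1) / 2) + 0 := by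
            obtain ⟨m, rfl⟩ := Nat.not_even_iff_odd.mp he
            have h3 : (2 * m + 1 + 1 + 1) / 2 = (2 * m + 1 + 1) / 2 := by omega
            rw [h3, add_zero]
          rw [harith]
          exact hext
    have hfin := inner (2 * l s + 1)
    have htop : (upperPSeries s G (2 * l s + 1)).1 = ⊤ := hl s (Finset.mem_insert_self s S')
    have hG : PLengthLE p (a * ((2 * l s + 1 + 1) / 2)) G := by
      refine pLengthLE_of_surjective p (Subgroup.subtype _) ?_ _ hfin
      intro g
      exact ⟨⟨g, by rw [htop]; exact Subgroup.mem_top g⟩, rfl⟩
    rw [Finset.prod_insert hs, ← ha]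
    have harith : a * ((2 * l s + 1 + 1) / 2) = (1 + l s) * a := by
      have h3 : (2 * l s + 1 + 1) / 2 = 1 + l s := by omega
      rw [h3, mul_comm]
    rw [← harith]
    exact hG

end Cfsg.Agent.Helper20.PLen
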