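import Mathlib
import Cfsg.Prelude.Def_OddOrderLocal
import Cfsg.Agent.Helper9.Layer

set_option autoImplicit false

namespace Cfsg.Agent.Helper20

open Subgroup Cfsg.Agent.Helper9

universe u

instance piCore_char (π : Set ℕ) {N : Type u} [Group N] : (Cfsg.piCore π N).Characteristic :=
  sSup_characteristic _ (fun e A hA =>
    ⟨hA.1.map e.toMonoidHom e.surjective, by
      rw [← Nat.card_congr (A.equivMapOfInjective e.toMonoidHom e.injective).toEquiv]
      exact hA.2⟩)

theorem piCore_isPi (π : Set ℕ) {G : Type u} [Group G] [Finite G] :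
    ∀ p : ℕ, p.Prime → p ∣ Nat.card (Cfsg.piCore π G) → p ∈ π :=
  sSup_normal_induction (fun A : Subgroup G => ∀ p : ℕ, p.Prime → p ∣ Nat.card A → p ∈ π)
    (by
      intro p hp hdvd
      rw [Subgroup.card_bot] at hdvd
      exact absurd (Nat.dvd_one.1 hdvd) hp.ne_one)
    (fun A B _ hB pA pB => by
      have := hB
      intro p hp hdvd
      rcases (Nat.Prime.dvd_mul hp).1 (hdvd.trans (card_sup_dvd A B)) with h | h
      · exact pA p hp h
      · exact pB p hp h) _
    (fun N hN => hN)

theorem le_piCore (π : Set ℕ) {G : Type u} [Group G] {N : Subgroup G} (hN : N.Normal)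
    (hp : ∀ p : ℕ, p.Prime → p ∣ Nat.card N → p ∈ π) : N ≤ Cfsg.piCore π G :=
  le_sSup ⟨hN, hp⟩

theorem le_piOf (π : Set ℕ) {G : Type u} [Group G] {A H : Subgroup G} (hAH : A ≤ H)
    (hn : H ≤ normalizer (A : Set G)) (hpi : ∀ p : ℕ, p.Prime → p ∣ Nat.card A → p ∈ π) :
    A ≤ (Cfsg.piCore π ↥H).map H.subtype := by
  rw [← Subgroup.map_subgroupOf_eq_of_le hAH]
  apply Subgroup.map_mono
  apply le_piCore
  · exact (Subgroup.normal_subgroupOf_iff_le_normalizer hAH).mpr hn
  · rw [Nat.card_congr (Subgroup.subgroupOfEquivOfLe hAH).toEquiv]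
    exact hpi

theorem piOf_isPi (π : Set ℕ) {G : Type u} [Group G] [Finite G] (H : Subgroup G) :
    ∀ p : ℕ, p.Prime → p ∣ Nat.card ((Cfsg.piCore π ↥H).map H.subtype) → p ∈ π := by
  rw [← Nat.card_congr
    ((Cfsg.piCore π ↥H).equivMapOfInjective H.subtype H.subtype_injective).toEquiv]
  exact piCore_isPi π

theorem piOf_le_piCore_of_subnormal (π : Set ℕ) {G : Type u} [Group G] [Finite G]
    (H : Subgroup G) (hH : H.IsSubnormal) :
    (Cfsg.piCore π ↥H).map H.subtype ≤ Cfsg.piCore π G := by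
  induction hH with
  | top =>
    apply le_piCore
    · exact char_map_normal ⊤ _
    · exact piOf_isPi π ⊤
  | step H K h_le hK hN ih =>
    refine le_trans ?_ ih
    apply le_piOf π ((Subgroup.map_subtype_le _).trans h_le)
    · exact ((Subgroup.normal_subgroupOf_iff_le_normalizer h_le).mp hN).trans
        (char_map_normalizer H _)
    · exact piOf_isPi π H

/-- A subnormal `π`-subgroup lies in `O_π(G)`. -/
theorem subnormal_pi_le_piCore (π : Set ℕ) {G : Type u} [Group G] [Finite G] (N : Subgroup G)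
    (hN : N.IsSubnormal) (hpi : ∀ p : ℕ, p.Prime → p ∣ Nat.card N → p ∈ π) :
    N ≤ Cfsg.piCore π G := by
  refine le_trans ?_ (piOf_le_piCore_of_subnormal π N hN)
  exact le_piOf π le_rfl Subgroup.le_normalizer hpi

end Cfsg.Agent.Helper20
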