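import Mathlib

namespace Cfsg.Agent.Helper20

open MulAction

/-- A nontrivial normal subgroup of a faithful transitive group of prime degree is transitive. -/
theorem orbit_eq_univ_of_normal_of_prime {Γ α : Type*} [Group Γ] [MulAction Γ α] [Finite α]
    [IsPretransitive Γ α] {p : ℕ} (hp : p.Prime) (hα : Nat.card α = p)
    (hf : ∀ g : Γ, (∀ a : α, g • a = a) → g = 1) (N : Subgroup Γ) [N.Normal] (hN : N ≠ ⊥)
    (a : α) : orbit ↥N a = Set.univ := by
  obtain ⟨k, hk⟩ := Subgroup.ne_bot_iff_exists_ne_one.mp hN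
  have hex : ∃ b : α, (k : Γ) • b ≠ b := by
    by_contra hcon
    push_neg at hcon
    exact hk (Subtype.ext (hf k.1 hcon))
  obtain ⟨b, hb⟩ := hex
  have hblock : IsBlock Γ (orbit ↥N b) := IsBlock.orbit_of_normal b
  have hne : (orbit ↥N b).Nonempty := ⟨b, mem_orbit_self b⟩
  have hdvd : (orbit ↥N b).ncard ∣ p := by
    have := hblock.ncard_dvd_card hne
    rwa [hα] at this
  have hne1 : (orbit ↥N b).ncard ≠ 1 := by
    intro h1
    obtain ⟨c, hc⟩ := Set.ncard_eq_one.mp h1
    have h2 : b ∈ orbit ↥N b := mem_orbit_self b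
    have h3 : (k : Γ) • b ∈ orbit ↥N b := mem_orbit b k
    rw [hc, Set.mem_singleton_iff] at h2 h3
    exact hb (h3.trans h2.symm)
  have hcard : (orbit ↥N b).ncard = p := ((Nat.dvd_prime hp).mp hdvd).resolve_left hne1
  have huniv : orbit ↥N b = Set.univ :=
    Set.eq_of_subset_of_ncard_le (Set.subset_univ _)
      (le_of_eq (by rw [Set.ncard_univ, hα, hcard])) Set.finite_univ
  have ha : a ∈ orbit ↥N b := by rw [huniv]; trivial
  rw [orbit_eq_iff.mpr ha, huniv]

theorem dvd_card_of_normal_of_prime {Γ α : Type*} [Group Γ] [MulAction Γ α] [Finite α]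
    [IsPretransitive Γ α] {p : ℕ} (hp : p.Prime) (hα : Nat.card α = p)
    (hf : ∀ g : Γ, (∀ a : α, g • a = a) → g = 1) (N : Subgroup Γ) [N.Normal] (hN : N ≠ ⊥) :
    p ∣ Nat.card ↥N := by
  have hpos : 0 < Nat.card α := by rw [hα]; exact hp.pos
  obtain ⟨a⟩ : Nonempty α := Finite.card_pos_iff.mp hpos
  have h1 := orbit_eq_univ_of_normal_of_prime hp hα hf N hN a
  have h2 : (stabilizer ↥N a).index = (orbit ↥N a).ncard := index_stabilizer ↥N a
  rw [h1, Set.ncard_univ, hα] at h2
  rw [← h2]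
  exact Subgroup.index_dvd_card _

theorem isPretransitive_of_normal_of_prime {Γ α : Type*} [Group Γ] [MulAction Γ α] [Finite α]
    [IsPretransitive Γ α] {p : ℕ} (hp : p.Prime) (hα : Nat.card α = p)
    (hf : ∀ g : Γ, (∀ a : α, g • a = a) → g = 1) (N : Subgroup Γ) [N.Normal] (hN : N ≠ ⊥) :
    IsPretransitive ↥N α := by
  refine ⟨fun x y => ?_⟩
  have h1 := orbit_eq_univ_of_normal_of_prime hp hα hf N hN x
  have h2 : y ∈ orbit ↥N x := by rw [h1]; trivial
  exact mem_orbit_iff.mp h2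

/-- A faithful transitive group of prime degree `p` (order not divisible by `p^2`) with more
than one Sylow `p`-subgroup and `|N(P) : P|` prime is simple. -/
theorem simple_of_prime_degree {Γ α : Type*} [Group Γ] [Finite Γ] [MulAction Γ α] [Finite α]
    [IsPretransitive Γ α] {p : ℕ} [Fact p.Prime] (hα : Nat.card α = p)
    (hf : ∀ g : Γ, (∀ a : α, g • a = a) → g = 1)
    (hcard : ¬ p ^ 2 ∣ Nat.card Γ)
    (P : Sylow p Γ) (hn : 1 < Nat.card (Sylow p Γ))
    (ht : ((P : Subgroup Γ).relIndex (Subgroup.normalizer ((P : Subgroup Γ) : Set Γ))).Prime) :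
    IsSimpleGroup Γ := by
  classical
  have hp : p.Prime := Fact.out
  haveI : Nontrivial Γ := by
    haveI : Nontrivial α := Finite.one_lt_card_iff_nontrivial.mp (by rw [hα]; exact hp.one_lt)
    obtain ⟨a, b, hab⟩ := exists_pair_ne α
    obtain ⟨g, hg⟩ := MulAction.exists_smul_eq Γ a b
    refine ⟨⟨g, 1, fun h => hab ?_⟩⟩
    rw [← hg, h, one_smul]
  have hpΓ : p ∣ Nat.card Γ := by
    have hpos : 0 < Nat.card α := by rw [hα]; exact hp.pos
    obtain ⟨a⟩ : Nonempty α := Finite.card_pos_iff.mp hpos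
    have h1 : (stabilizer Γ a).index = Nat.card α := index_stabilizer_of_transitive Γ a
    rw [hα] at h1
    rw [← h1]
    exact Subgroup.index_dvd_card _
  have hΓ0 : Nat.card Γ ≠ 0 := Nat.card_pos.ne'
  have hfac : (Nat.card Γ).factorization p = 1 := by
    have h1 : 0 < (Nat.card Γ).factorization p := hp.factorization_pos_of_dvd hΓ0 hpΓ
    have h2 : ¬ 2 ≤ (Nat.card Γ).factorization p :=
      fun h => hcard ((hp.pow_dvd_iff_le_factorization hΓ0).mpr h)
    omega
  have hSyl : ∀ S : Sylow p Γ, Nat.card ↥(S : Subgroup Γ) = p := by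
    intro S
    rw [S.card_eq_multiplicity, hfac, pow_one]
  refine { eq_bot_or_eq_top_of_normal := ?_ }
  intro K hK
  by_contra hcon
  push_neg at hcon
  obtain ⟨hKbot, hKtop⟩ := hcon
  haveI := hK
  have hpK : p ∣ Nat.card ↥K := dvd_card_of_normal_of_prime hp hα hf K hKbot
  haveI hKtrans : IsPretransitive ↥K α := isPretransitive_of_normal_of_prime hp hα hf K hKbot
  have hidx : ¬ p ∣ K.index := by
    intro h
    apply hcard
    rw [← Subgroup.card_mul_index K, pow_two]
    exact Nat.mul_dvd_mul hpK h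
  have hPK : (P : Subgroup Γ) ≤ K := by
    intro x hx
    have hxp : x ^ p = 1 := by
      have h1 : (⟨x, hx⟩ : ↥(P : Subgroup Γ)) ^ Nat.card ↥(P : Subgroup Γ) = 1 := pow_card_eq_one'
      rw [hSyl P] at h1
      have h2 := congrArg Subtype.val h1
      exact h2
    have h1 : ((x : Γ ⧸ K)) ^ p = 1 := by
      rw [← QuotientGroup.mk_pow, hxp]; rfl
    have h2 : ((x : Γ ⧸ K)) ^ K.index = 1 := by
      rw [Subgroup.index_eq_card]; exact pow_card_eq_one'
    have h3 : orderOf (x : Γ ⧸ K) = 1 :=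
      Nat.Coprime.eq_one_of_dvd
        (Nat.Coprime.coprime_dvd_left (orderOf_dvd_of_pow_eq_one h1)
          ((Nat.Prime.coprime_iff_not_dvd hp).mpr hidx))
        (orderOf_dvd_of_pow_eq_one h2)
    exact (QuotientGroup.eq_one_iff x).mp (orderOf_eq_one_iff.mp h3)
  have hfrat : Subgroup.normalizer ((P : Subgroup Γ) : Set Γ) ⊔ K = ⊤ :=
    Sylow.normalizer_sup_eq_top' P hPK
  have hidx2 : K.index = K.relIndex (Subgroup.normalizer ((P : Subgroup Γ) : Set Γ)) := by
    rw [← Subgroup.relIndex_top_right, ← hfrat, Subgroup.relIndex_sup_right]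
  have hPD : (P : Subgroup Γ) ≤ K ⊓ Subgroup.normalizer ((P : Subgroup Γ) : Set Γ) :=
    le_inf hPK Subgroup.le_normalizer
  have hmul := Subgroup.relIndex_mul_relIndex (P : Subgroup Γ)
    (K ⊓ Subgroup.normalizer ((P : Subgroup Γ) : Set Γ))
    (Subgroup.normalizer ((P : Subgroup Γ) : Set Γ)) hPD inf_le_right
  rw [Subgroup.inf_relIndex_right] at hmul
  rw [← hmul] at ht
  rcases Nat.prime_mul_iff.mp ht with ⟨_, h1⟩ | ⟨_, h1⟩
  · apply hKtop
    rw [← Subgroup.index_eq_one, hidx2, h1]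
  · have hDP : K ⊓ Subgroup.normalizer ((P : Subgroup Γ) : Set Γ) ≤ (P : Subgroup Γ) :=
      Subgroup.relIndex_eq_one.mp h1
    have hPcomm : ∀ x y : Γ, x ∈ (P : Subgroup Γ) → y ∈ (P : Subgroup Γ) → x * y = y * x := by
      intro x y hx hy
      haveI : IsCyclic ↥(P : Subgroup Γ) := isCyclic_of_prime_card (hSyl P)
      obtain ⟨g, hg⟩ := IsCyclic.exists_generator (α := ↥(P : Subgroup Γ))
      obtain ⟨i, hi⟩ := Subgroup.mem_zpowers_iff.mp (hg ⟨x, hx⟩)
      obtain ⟨j, hj⟩ := Subgroup.mem_zpowers_iff.mp (hg ⟨y, hy⟩)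
      have h1 : (⟨x, hx⟩ : ↥(P : Subgroup Γ)) * ⟨y, hy⟩ = ⟨y, hy⟩ * ⟨x, hx⟩ := by
        rw [← hi, ← hj]; exact zpow_mul_comm g i j
      have h2 := congrArg Subtype.val h1
      exact h2
    have hNC' : Subgroup.normalizer ((((P : Subgroup Γ).subgroupOf K : Subgroup ↥K)) : Set ↥K)
        ≤ Subgroup.centralizer ((((P : Subgroup Γ).subgroupOf K : Subgroup ↥K)) : Set ↥K) := by
      intro x hx
      rw [Subgroup.mem_normalizer_iff] at hx
      have hxN : (x : Γ) ∈ Subgroup.normalizer ((P : Subgroup Γ) : Set Γ) := by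
        rw [Subgroup.mem_normalizer_iff]
        intro z
        constructor
        · intro hz
          have h := (hx ⟨z, hPK hz⟩).mp (Subgroup.mem_subgroupOf.mpr hz)
          exact Subgroup.mem_subgroupOf.mp h
        · intro hz
          have hzK : z ∈ K := by
            have h1 : (x : Γ) * z * (x : Γ)⁻¹ ∈ K := hPK hz
            have h2 : z = (x : Γ)⁻¹ * ((x : Γ) * z * (x : Γ)⁻¹) * (x : Γ) := by group
            rw [h2]
            exact K.mul_mem (K.mul_mem (K.inv_mem x.2) h1) x.2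
          have h := (hx ⟨z, hzK⟩).mpr (Subgroup.mem_subgroupOf.mpr hz)
          exact Subgroup.mem_subgroupOf.mp h
      have hxP : (x : Γ) ∈ (P : Subgroup Γ) := hDP ⟨x.2, hxN⟩
      rw [Subgroup.mem_centralizer_iff]
      intro y hy
      have hyP : (y : Γ) ∈ (P : Subgroup Γ) := Subgroup.mem_subgroupOf.mp hy
      apply Subtype.ext
      exact hPcomm (y : Γ) (x : Γ) hyP hxP
    have hNC : Subgroup.normalizer (((P.subtype hPK : Sylow p ↥K) : Subgroup ↥K) : Set ↥K)
        ≤ Subgroup.centralizer (((P.subtype hPK : Sylow p ↥K) : Subgroup ↥K) : Set ↥K) := hNC'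
    have hcompl := MonoidHom.ker_transferSylow_isComplement' (P.subtype hPK) hNC
    have hnd := MonoidHom.not_dvd_card_ker_transferSylow (P.subtype hPK) hNC
    have hfK : ∀ g : ↥K, (∀ a : α, g • a = a) → g = 1 := fun g hg => Subtype.ext (hf g.1 hg)
    have hMbot : (MonoidHom.transferSylow (P.subtype hPK) hNC).ker = ⊥ := by
      by_contra hne
      exact hnd (dvd_card_of_normal_of_prime hp hα hfK _ hne)
    rw [hMbot, Subgroup.isComplement'_bot_left] at hcompl
    have hKP : K ≤ (P : Subgroup Γ) := by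
      intro k hk
      have h : (⟨k, hk⟩ : ↥K) ∈ ((P.subtype hPK : Sylow p ↥K) : Subgroup ↥K) := by
        rw [hcompl]; trivial
      exact Subgroup.mem_subgroupOf.mp h
    have hPeq : (P : Subgroup Γ) = K := le_antisymm hPK hKP
    have hPn : (P : Subgroup Γ).Normal := hPeq ▸ hK
    haveI := Sylow.unique_of_normal P hPn
    rw [Nat.card_unique] at hn
    exact absurd hn (lt_irrefl 1)

end Cfsg.Agent.Helper20
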